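import Cfsg.Agent.H970.Cov.B3
import Cfsg.Agent.S0296

/-!
# No cover of `PΩ₈⁺(q)`, `q = 5^m`, in the other characteristics (helper876, task N2, after helper970)
-/

set_option autoImplicit false

namespace Cfsg.Agent.H876.Six

open Cfsg.Agent.H376.Six

/-- **N2, characteristic 5.** -/
theorem nc_d4 {F : Type*} [Field F] [Fintype F] {m : ℕ} (hm : 1 ≤ m) (hF : Fintype.card F = 5 ^ m) {H : Type*}
    [Group H] [Finite H] (V : Subgroup H) [V.Normal] {t : ℕ} (ht5 : t ≠ 5) (hV : Cov t H V)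
    (e : H ⧸ V ≃* Cfsg.POmega F (Cfsg.quadFormPlus 4 F)) (hub : ∀ x : H, UB5 (Fintype.card F) (orderOf x)) :
    False := by
  obtain ⟨f, hf⟩ := Cfsg.Agent.H912.Bd.exists_plus (K := F) (m := 3) (n := 4) (by norm_num)
  have h1 : Fintype.card F % 4 = 1 := by
    rw [hF, Nat.pow_mod, show 5 % 4 = 1 by norm_num, one_pow, Nat.one_mod]
  have h5 : 5 ≤ Fintype.card F := by
    rw [hF]; exact Nat.le_self_pow (by omega) 5
  have hs : IsSimpleGroup (Cfsg.POmega F (Cfsg.quadFormPlus 4 F)) := Cfsg.Agent.S0296.result 4 (by norm_num)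
  obtain ⟨y, hy⟩ := Cfsg.Agent.H970.Cov.exists_orderOf f hf V hV (by
    rw [hF]; exact Nat.Coprime.pow_left _ ((Nat.coprime_primes Nat.prime_five hV.prime).2 ht5.symm)) e
  have h2 := hub y
  rw [hy] at h2
  exact Cfsg.Agent.H970.Cov.arith h5 h1 hV.prime ht5 h2

end Cfsg.Agent.H876.Six
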